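import Mathlib
import Cfsg.Agent.Lib.HSR3.C0
import Cfsg.Agent.Lib.HSR3.P.Main
import Cfsg.Agent.Lib.HSR3.Q.Main
import Cfsg.Agent.Lib.HSR3.R.Main
import Cfsg.Agent.Lib.SubCl.Sq
import Cfsg.Agent.Lib.MultC.ConwayIso
import Cfsg.Agent.Lib.MultC.M22.Iso

/-!
# The Higman–Sims group as a rank 3 group
-/

set_option autoImplicit false
set_option maxRecDepth 100000

namespace CfsgLib.HSR3

open CfsgLib.Comput CfsgLib.SubCl CfsgLib.Rank3 MulAction Subgroup Equiv
open scoped Pointwise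

local notation "g" => permG 100 P.W
local notation "pt" => finPt 100

/-- the Higman–Sims group on 100 points -/
noncomputable abbrev GP : Subgroup (Perm (Fin 100)) := cl g P.top

local notation "H" => St GP (pt 0)

theorem M : SM g 100 pt st := P.M

theorem hH : H = cl g P.L0.hs := by
  rw [GP, P.top_eq P.E]; exact (P.good_0 P.M P.E).1.stabilizer_eq (P.M.fixes (by decide +kernel))

theorem cH : Nat.card H = 443520 := by rw [hH]; exact P.card_1 P.M P.E

theorem hA : InA g 0x3fffffff0 H := hH ▸ P.inA_1 P.E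

theorem hg : ∀ m, g m ∈ GP := mem_of_inA (j := 36) (P.inA_top P.E) (by decide +kernel)

theorem V : WM g sT (idTab 100 7) := WM.perm P.W_ok (by norm_num)

theorem md : Md g st GP 0x3fffffff0 0 3 1 D E Rb Rc 22 77 := md_of M hg hH (hH ▸ hA) c_md

theorem goalK : ∀ K ≤ H, Nat.card K = 20160 → Goal K (sem 100 pt D) := by
  have : Fact (Nat.Prime 2) := ⟨Nat.prime_two⟩
  have : Fact (Nat.Prime 3) := ⟨Nat.prime_three⟩
  have : Fact (Nat.Prime 7) := ⟨by norm_num⟩
  exact (seed_of_pgroup (k := 22) (isPGroup_of_pc V c_pc3) (cl_le_of_inA hA (by decide +kernel)) cH (by norm_num)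
    (sub_sing.2 le_rfl)).goal (leaf_sound M (List.forall_mem_singleton.2 ⟨md.kD,
      ((al_div M md.kD (by norm_num) (fun _ _ => dvd_zero _) c_alK).land (al_seed M (seed_of_pgroup (k := 22)
        (isPGroup_of_pc V c_pc7) (cl_le_of_inA hA (by decide +kernel)) cH (by norm_num) (sub_sing.2 le_rfl)) md.kD
        c_al7)).land (al_seed M (seed_of_sq (k := 22) (isPGroup_of_pc V c_pc2) (cl_le_of_inA hA (by decide +kernel)) cH
          (by norm_num) (sub_cl _ (by decide +kernel))) md.kD c_al2)⟩) (by simp) _ _ _ c_K) md.kD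

theorem iso_C : Nonempty (GP ≃* cl (permG 176 Leech.CHS.W) Leech.CHS.top) := by
  obtain ⟨e, -⟩ := exists_equiv_of_lab Q.M Leech.CHS.M (allLt_sound c_labC) le_rfl
    (Q.card_perm.trans Leech.CHS.card_perm.symm).le
  obtain ⟨e', -⟩ := exists_equiv_of_lab Q.M M (allLt_sound c_labP) le_rfl (Q.card_perm.trans P.card_perm.symm).le
  exact ⟨e'.symm.trans e⟩

theorem facts : Facts GP (pt 0) (pt 3) (pt 1) 22 77 where
  R := md.R
  simple := iso_C.elim fun e => haveI := Leech.CHS.simple_perm; e.isSimpleGroup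
  hd := by norm_num
  HK := md.HK (s := 20160) cH goalK
  H1 := md.H1 c_H1
  HL := haveI : Fact (Nat.Prime 2) := ⟨Nat.prime_two⟩
    md.HL (s := 5760) cH (seed_of_pgroup (k := 77) (isPGroup_of_pc V c_pc2) (cl_le_of_inA hA (by decide +kernel)) cH
      (by norm_num) (sub_cl _ (by decide +kernel)))
      (List.forall_mem_singleton.2 (md.good Tw.refl (one_smul _ _) c_good)) c_L1 c_L2
  hinj := md.hinj c_inj
  H2 := md.H2 c_H2
  HA := md.HA M hg c_aut (by rw [P.card_perm])

theorem stab_iso : Nonempty (Cfsg.Spor.M22 ≃* H) := by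
  obtain ⟨e, -⟩ := exists_equiv_of_lab (M.words us) R.M (allLt_sound c_lab) (K := H)
    (cl_le.2 fun w _ => ev_mem_of_all (ev_nth_mem fun u hu => ev_mem hA (allL_sound (by decide +kernel) u hu)) w)
    (cH.trans R.card_perm.symm).le
  obtain ⟨e', -⟩ := exists_equiv_of_lab MultC.M22.C.M R.M (allLt_sound c_labM) le_rfl
    (MultC.M22.C.card_perm.trans R.card_perm.symm).le
  obtain ⟨f⟩ := MultC.M22.iso
  exact ⟨f.trans (e'.trans e.symm)⟩

theorem recog {Ω : Type*} [Fintype Ω] (hΩ : Fintype.card Ω = 100) (G : Subgroup (Perm Ω)) [IsPretransitive G Ω]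
    {a b c : Ω} (e : stabilizer G a ≃* Cfsg.Spor.M22) (hb : (orbit (stabilizer G a) b).ncard = 22)
    (hc : (orbit (stabilizer G a) c).ncard = 77) : Nonempty (G ≃* Cfsg.Spor.HS) := by
  obtain ⟨f⟩ := stab_iso
  obtain ⟨f'⟩ := iso_C
  obtain ⟨f''⟩ := MultC.isoHS
  obtain ⟨ψ⟩ := facts.recog hΩ G (e.trans f) hb hc
  exact ⟨ψ.trans (f'.trans f''.symm)⟩

end CfsgLib.HSR3
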